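import Cfsg.Agent.H9.CodeRA
import Cfsg.Agent.H9.OutM11
import Cfsg.Agent.H9.OutM12
import Cfsg.Agent.H9.OutM22
import Cfsg.Agent.H9.OutM23
import Cfsg.Agent.H9.OutM24

/-! Tables, bases and orders of the Mathieu groups, collected. -/

set_option autoImplicit false

namespace Cfsg.Agent.H9

open Cfsg Cfsg.Spor

theorem pubM11 : ∃ (A : L0.RAct M11 24) (g : ℕ → M11), A.Tab g 15 OutM11.T ∧
    A.IsBase OutM11.B ∧ Nat.card M11 = 7920 ∧ Subgroup.closure {g 0, g 1, g 2} = ⊤ := by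
  obtain ⟨g, hg⟩ := exists_tab_math (T := OutM11.T) memP11 (k := 3) (ts := OutM11.ts)
    (tis := OutM11.tis) (by decide +kernel)
  obtain ⟨g', -, h⟩ := OutM11.ok hg card_M11_le
  exact ⟨_, g', h.pub⟩

theorem pubM12 : ∃ (A : L0.RAct M12 24) (g : ℕ → M12), A.Tab g 21 OutM12.T ∧
    A.IsBase OutM12.B ∧ Nat.card M12 = 95040 ∧ Subgroup.closure {g 0, g 1, g 2} = ⊤ := by
  obtain ⟨g, hg⟩ := exists_tab_math (T := OutM12.T) memP12 (k := 3) (ts := OutM12.ts)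
    (tis := OutM12.tis) (by decide +kernel)
  obtain ⟨g', -, h⟩ := OutM12.ok hg card_M12_le
  exact ⟨_, g', h.pub⟩

theorem pubM22 : ∃ (A : L0.RAct M22 24) (g : ℕ → M22), A.Tab g 19 OutM22.T ∧
    A.IsBase OutM22.B ∧ Nat.card M22 = 443520 ∧ Subgroup.closure {g 0, g 1, g 2} = ⊤ := by
  obtain ⟨g, hg⟩ := exists_tab_math (T := OutM22.T) memP22 (k := 3) (ts := OutM22.ts)
    (tis := OutM22.tis) (by decide +kernel)
  obtain ⟨g', -, h⟩ := OutM22.ok hg card_M22_le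
  exact ⟨_, g', h.pub⟩

theorem pubM23 : ∃ (A : L0.RAct M23 24) (g : ℕ → M23), A.Tab g 23 OutM23.T ∧
    A.IsBase OutM23.B ∧ Nat.card M23 = 10200960 ∧ Subgroup.closure {g 0, g 1, g 2} = ⊤ := by
  obtain ⟨g, hg⟩ := exists_tab_math (T := OutM23.T) memP23 (k := 3) (ts := OutM23.ts)
    (tis := OutM23.tis) (by decide +kernel)
  obtain ⟨g', -, h⟩ := OutM23.ok hg card_M23_le
  exact ⟨_, g', h.pub⟩

theorem pubM24 : ∃ (A : L0.RAct M24 24) (g : ℕ → M24), A.Tab g 25 OutM24.T ∧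
    A.IsBase OutM24.B ∧ Nat.card M24 = 244823040 ∧ Subgroup.closure {g 0, g 1, g 2} = ⊤ := by
  obtain ⟨g, hg⟩ := exists_tab_math (T := OutM24.T) memP24 (k := 3) (ts := OutM24.ts)
    (tis := OutM24.tis) (by decide +kernel)
  obtain ⟨g', -, h⟩ := OutM24.ok hg card_M24_le
  exact ⟨_, g', h.pub⟩

end Cfsg.Agent.H9
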